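import Mathlib
import Cfsg.Prelude.Def_Classical
import Cfsg.Agent.Forms25.MaximalSingular

/-! The hyperbolic form `quadFormPlus` as a quadratic map, and coordinate subspaces. -/

set_option autoImplicit false

namespace Cfsg.Agent.Forms25

open Module

variable {F : Type*} [Field F] (m : ℕ)

/-- The form `quadFormPlus` as a bundled quadratic form. -/
noncomputable def plusQF : QuadraticForm F (Fin m ⊕ Fin m → F) :=
  ∑ i : Fin m, QuadraticMap.proj (R := F) (A := F) (Sum.inl i) (Sum.inr i)

theorem plusQF_apply (v : Fin m ⊕ Fin m → F) : plusQF m v = Cfsg.quadFormPlus m F v := by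
  simp [plusQF, Cfsg.quadFormPlus, QuadraticMap.proj]

theorem plusQF_polar (u v : Fin m ⊕ Fin m → F) :
    QuadraticMap.polarBilin (plusQF m) u v =
      ∑ i : Fin m, (u (.inl i) * v (.inr i) + u (.inr i) * v (.inl i)) := by
  change plusQF m (u + v) - plusQF m u - plusQF m v = _
  rw [plusQF_apply, plusQF_apply, plusQF_apply, Cfsg.quadFormPlus, Cfsg.quadFormPlus,
    Cfsg.quadFormPlus, ← Finset.sum_sub_distrib, ← Finset.sum_sub_distrib]
  refine Finset.sum_congr rfl fun i _ => ?_
  simp only [Pi.add_apply]
  ring

theorem plusQF_nondegenerate :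
    (QuadraticMap.polarBilin (plusQF (F := F) m)).Nondegenerate := by
  have key : ∀ u : Fin m ⊕ Fin m → F, (∀ v, QuadraticMap.polarBilin (plusQF m) u v = 0) → u = 0 := by
    intro u h
    funext j
    rcases j with i | i
    · have h' := h (Pi.single (.inr i) 1)
      rw [plusQF_polar] at h'
      simpa [Pi.single_apply] using h'
    · have h' := h (Pi.single (.inl i) 1)
      rw [plusQF_polar] at h'
      simpa [Pi.single_apply] using h'
  exact ⟨key, fun u h => key u fun v => by rw [polarBilin_comm]; exact h v⟩

theorem finrank_plus : finrank F (Fin m ⊕ Fin m → F) = 2 * m := by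
  rw [Module.finrank_pi]; simp; omega

theorem totSing_plus {W : Submodule F (Fin m ⊕ Fin m → F)} :
    TotSing (plusQF m) W ↔ ∀ w ∈ W, Cfsg.quadFormPlus m F w = 0 := by
  simp only [TotSing, plusQF_apply]

/-- Vectors supported on the coordinates in `S`. -/
def supported {ι : Type} (S : Finset ι) : Submodule F (ι → F) where
  carrier := {v | ∀ j, j ∉ S → v j = 0}
  add_mem' ha hb j hj := by simp [ha j hj, hb j hj]
  zero_mem' := by simp
  smul_mem' c v hv j hj := by simp [hv j hj]

theorem mem_supported {ι : Type} {S : Finset ι} {v : ι → F} :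
    v ∈ supported S ↔ ∀ j, j ∉ S → v j = 0 := Iff.rfl

theorem supported_inf {ι : Type} [DecidableEq ι] (S S' : Finset ι) :
    (supported S ⊓ supported S' : Submodule F (ι → F)) = supported (S ∩ S') := by
  ext v
  simp only [Submodule.mem_inf, mem_supported, Finset.mem_inter]
  exact ⟨fun h j hj => by by_cases h' : j ∈ S
                          · exact h.2 j (fun h'' => hj ⟨h', h''⟩)
                          · exact h.1 j h',
    fun h => ⟨fun j hj => h j fun h' => hj h'.1, fun j hj => h j fun h' => hj h'.2⟩⟩

theorem finrank_supported {ι : Type} [DecidableEq ι] (S : Finset ι) :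
    finrank F (supported S : Submodule F (ι → F)) = S.card := by
  let e : (supported S : Submodule F (ι → F)) ≃ₗ[F] (S → F) :=
    { toFun := fun v j => (v : ι → F) j
      map_add' := fun _ _ => rfl
      map_smul' := fun _ _ => rfl
      invFun := fun f => ⟨fun j => if h : j ∈ S then f ⟨j, h⟩ else 0, fun j hj => by simp [hj]⟩
      left_inv := fun v => by
        ext j
        by_cases h : j ∈ S
        · simp [h]
        · simp [h, v.2 j h]
      right_inv := fun f => by ext j; simp }
  rw [e.finrank_eq, Module.finrank_pi]
  simp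

theorem supported_totSing (S : Finset (Fin m ⊕ Fin m))
    (h : ∀ i, Sum.inl i ∉ S ∨ Sum.inr i ∉ S) :
    TotSing (plusQF (F := F) m) (supported S) := by
  intro v hv
  rw [plusQF_apply, Cfsg.quadFormPlus]
  refine Finset.sum_eq_zero fun i _ => ?_
  rcases h i with h' | h' <;> simp [hv _ h']

end Cfsg.Agent.Forms25
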